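import Cfsg.Agent.H917.FP.Steps
import Cfsg.Agent.H920.FP.Theta

/-!
# `TV F (ι → F)` and `SL(ι, F)` (helper920, S5717)
-/

set_option autoImplicit false
set_option linter.unusedSectionVars false

namespace Cfsg.Agent.H920.FP

open Module Matrix Cfsg.Agent.H917.FP

section

variable {F : Type*} [Field F] {ι : Type*} [Fintype ι] [DecidableEq ι]

theorem tv_det (x : (ι → F) ≃ₗ[F] (ι → F)) (hx : x ∈ TV F (ι → F)) : LinearMap.det (x : (ι → F) →ₗ[F] (ι → F)) = 1 := by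
  have h : TV F (ι → F) ≤ (LinearEquiv.det (R := F) (M := ι → F)).ker := by
    unfold TV
    rw [Subgroup.closure_le]
    rintro _ ⟨f, v, hf, rfl⟩
    show LinearEquiv.det _ = 1
    exact LinearEquiv.transvection.det_eq_one hf
  have h1 := h hx
  rw [MonoidHom.mem_ker] at h1
  have h2 := congrArg Units.val h1
  rwa [LinearEquiv.coe_det] at h2

/-- `TV F (ι → F) → SL(ι, F)` -/
noncomputable def tvSL : TV F (ι → F) →* Matrix.SpecialLinearGroup ι F where
  toFun x := ⟨LinearMap.toMatrix' (x.1 : (ι → F) →ₗ[F] (ι → F)), by rw [LinearMap.det_toMatrix', tv_det _ x.2]⟩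
  map_one' := by
    apply Subtype.ext
    show LinearMap.toMatrix' _ = 1
    exact LinearMap.toMatrix'_id
  map_mul' x y := by
    apply Subtype.ext
    show LinearMap.toMatrix' _ = LinearMap.toMatrix' _ * LinearMap.toMatrix' _
    rw [← LinearMap.toMatrix'_comp]
    rfl

theorem tvSL_mulVec (x : TV F (ι → F)) (v : ι → F) :
    (tvSL x : Matrix ι ι F) *ᵥ v = (x : (ι → F) ≃ₗ[F] (ι → F)) v := by
  show LinearMap.toMatrix' (x.1 : (ι → F) →ₗ[F] (ι → F)) *ᵥ v = _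
  rw [LinearMap.toMatrix'_mulVec]
  rfl

theorem sl_ext {g h : Matrix.SpecialLinearGroup ι F} (hgh : ∀ v, (g : Matrix ι ι F) *ᵥ v = (h : Matrix ι ι F) *ᵥ v) :
    g = h := by
  apply Subtype.ext
  exact Matrix.ext_iff_mulVec.2 hgh

theorem blk_of {κ : Type*} [Fintype κ] [DecidableEq κ] (M : Matrix.SpecialLinearGroup (ι ⊕ κ) F)
    (L : (ι → F) → (ι → F)) (h : ∀ a c, (M : Matrix (ι ⊕ κ) (ι ⊕ κ) F) *ᵥ Sum.elim a c = Sum.elim (L a) c) :
    ∃ g, M = blk g := by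
  have hM := fromBlocks_toBlocks (M : Matrix (ι ⊕ κ) (ι ⊕ κ) F)
  set A := (M : Matrix (ι ⊕ κ) (ι ⊕ κ) F).toBlocks₁₁
  set B := (M : Matrix (ι ⊕ κ) (ι ⊕ κ) F).toBlocks₁₂
  set C := (M : Matrix (ι ⊕ κ) (ι ⊕ κ) F).toBlocks₂₁
  set D := (M : Matrix (ι ⊕ κ) (ι ⊕ κ) F).toBlocks₂₂
  have h1 : ∀ a c, A *ᵥ a + B *ᵥ c = L a ∧ C *ᵥ a + D *ᵥ c = c := by
    intro a c
    have h2 := h a c
    rw [← hM, fromBlocks_mulVec] at h2
    simp only [Sum.elim_comp_inl, Sum.elim_comp_inr] at h2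
    exact Sum.elim_eq_iff.1 h2
  have hL0 : L 0 = 0 := by
    have := (h1 0 0).1
    rwa [mulVec_zero, mulVec_zero, add_zero, eq_comm] at this
  have hB : B = 0 := by
    apply Matrix.ext_iff_mulVec.2
    intro c
    have := (h1 0 c).1
    rwa [mulVec_zero, zero_add, hL0, ← zero_mulVec c] at this
  have hC : C = 0 := by
    apply Matrix.ext_iff_mulVec.2
    intro a
    have := (h1 a 0).2
    rwa [mulVec_zero, add_zero, ← zero_mulVec a] at this
  have hD : D = 1 := by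
    apply Matrix.ext_iff_mulVec.2
    intro c
    have := (h1 0 c).2
    rw [mulVec_zero, zero_add] at this
    rw [this, one_mulVec]
  have hdet : A.det = 1 := by
    have h2 := M.2
    rw [← hM, hB, hC, hD, det_fromBlocks_zero₂₁, det_one, mul_one] at h2
    exact h2
  refine ⟨⟨A, hdet⟩, ?_⟩
  apply Subtype.ext
  show (M : Matrix (ι ⊕ κ) (ι ⊕ κ) F) = fromBlocks A 0 0 1
  rw [← hM, hB, hC, hD]

end

section K

variable {F K : Type*} [Field F] [Field K] [Algebra F K] {m : ℕ} (b : Basis (Fin m) F K) (κ : Type*) [Fintype κ]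
  [DecidableEq κ]

/-- `K² × F^κ ≃ F^{(m + m) + κ}` -/
noncomputable def eqK : ((K × K) × (κ → F)) ≃ₗ[F] ((Fin m ⊕ Fin m) ⊕ κ → F) :=
  (LinearEquiv.prodCongr ((LinearEquiv.prodCongr b.equivFun b.equivFun).trans
    (LinearEquiv.sumArrowLequivProdArrow (Fin m) (Fin m) F F).symm) (LinearEquiv.refl F (κ → F))).trans
    (LinearEquiv.sumArrowLequivProdArrow (Fin m ⊕ Fin m) κ F F).symm

theorem eqK_apply (x y : K) (c : κ → F) :
    eqK b κ ((x, y), c) = Sum.elim (Sum.elim (b.equivFun x) (b.equivFun y)) c := by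
  funext i
  rcases i with (i | i) | i <;> rfl

theorem tv_blk (y : TV F (K × K)) : ∃ g, tvSL (bh (eqK b κ) y) = blk g := by
  refine blk_of _ (fun a => Sum.elim (b.equivFun ((y : (K × K) ≃ₗ[F] (K × K))
    (b.equivFun.symm (a ∘ Sum.inl), b.equivFun.symm (a ∘ Sum.inr))).1)
    (b.equivFun ((y : (K × K) ≃ₗ[F] (K × K)) (b.equivFun.symm (a ∘ Sum.inl), b.equivFun.symm (a ∘ Sum.inr))).2)) ?_
  intro a c
  rw [tvSL_mulVec, bh_coe, bhE_apply]
  have h1 : Sum.elim a c = eqK b κ ((b.equivFun.symm (a ∘ Sum.inl), b.equivFun.symm (a ∘ Sum.inr)), c) := by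
    rw [eqK_apply, b.equivFun.apply_symm_apply, b.equivFun.apply_symm_apply, Sum.elim_comp_inl_inr]
  rw [h1, LinearEquiv.symm_apply_apply]
  exact eqK_apply b κ _ _ _

theorem tv_low [FiniteDimensional F K] (c : K) :
    ∃ C : Matrix (Fin m) (Fin m) F, tvSL (bh (eqK b κ) (actT F K (lo c))) = blk (low C) := by
  refine ⟨LinearMap.toMatrix b b (LinearMap.mulLeft F c), ?_⟩
  apply sl_ext
  intro v
  obtain ⟨a, d, rfl⟩ : ∃ p q, v = Sum.elim p q := ⟨v ∘ Sum.inl, v ∘ Sum.inr, (Sum.elim_comp_inl_inr v).symm⟩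
  obtain ⟨a1, a2, rfl⟩ : ∃ p q, a = Sum.elim p q := ⟨a ∘ Sum.inl, a ∘ Sum.inr, (Sum.elim_comp_inl_inr a).symm⟩
  rw [blk_mulVec, low_mulVec, tvSL_mulVec, bh_coe, bhE_apply]
  obtain ⟨x, rfl⟩ := b.equivFun.surjective a1
  obtain ⟨y, rfl⟩ := b.equivFun.surjective a2
  rw [← eqK_apply, LinearEquiv.symm_apply_apply]
  simp only
  rw [actT_coe, act_apply]
  simp only [lo]
  rw [eqK_apply]
  congr 2
  · simp
  · simp only [Matrix.of_apply, Matrix.cons_val', Matrix.cons_val_one, Matrix.cons_val_zero, Matrix.cons_val_fin_one,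
      one_mul, map_add]
    congr 1
    have := LinearMap.toMatrix_mulVec_repr b b (LinearMap.mulLeft F c) x
    rw [LinearMap.mulLeft_apply] at this
    exact this.symm

end K

end Cfsg.Agent.H920.FP
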